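import Cfsg.Agent.H92.E8Row
import Cfsg.Agent.H542.G2X.CovCross
import Cfsg.Agent.H542.G2X.CovEven
import Cfsg.Agent.H564.U.G2

/-!
# `G₂(q)`: covers (helper369, S3483)
-/

set_option autoImplicit false

namespace Cfsg.Agent.H369.G3

open Cfsg Cfsg.Lie Cfsg.Agent.H373.Recog Cfsg.Agent.H366.X Cfsg.Agent.H542.G2X

universe u v w

/-- **Covers of `G₂(q)`.** -/
theorem cov_g2 {F : Type v} [Field F] [Fintype F] (h3 : 3 ≤ Fintype.card F) : Cov.{v, w} ↥(chevG2.group F) := by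
  obtain ⟨p, f, hchar, P⟩ := Par.exists h3
  have hpf : Fact p.Prime := ⟨P.hp⟩
  rw [cov_iff]
  intro l hl
  by_cases hlp : l = p
  · subst hlp
    by_cases h2 : l = 2
    · subst h2
      intro V _ _ _ hV φ
      exact cov_even P hV φ
    · obtain ⟨r, hr, h5, hd⟩ := P.exists_six
      obtain ⟨b1, b2, b3, b4, b5, b6⟩ := P.iso_six hr h5 hd
      obtain ⟨x, hx⟩ : ∃ x : ↥(chevG2.group F), orderOf x = r :=
        (om_iff P).2 (Or.inr (Or.inr (Or.inr (Or.inr (Or.inl hd)))))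
      have hlr : ¬ l ∣ r := fun h => b6 ((Nat.prime_dvd_prime_iff_eq hl hr).1 h).symm
      refine Cfsg.Agent.H92.E8Row.covP_of_fixAll hl (x := x) (by rw [hx]; exact hlr) ?_ ?_
      · rw [hx]
        intro hy
        have h1 := P.om_six hr h5 hd (dvd_mul_left r l) ((om_iff P).1 hy)
        have h4 : l ∣ Fintype.card F ^ 2 - Fintype.card F + 1 := (dvd_mul_right l r).trans h1
        have h6 : l ∣ Fintype.card F := P.p_dvd
        have h7 := phi6 (Fintype.card F)
        have h8 : l ∣ Fintype.card F ^ 2 + 1 := h7 ▸ dvd_add h4 h6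
        have h9 : l ∣ 1 := (Nat.dvd_add_right (h6.trans (dvd_pow_self _ two_ne_zero))).1 h8
        exact hl.one_lt.ne' (Nat.dvd_one.1 h9)
      · exact Cfsg.Agent.H564.U.fixAll_G2 h2 x (by rw [hx]; exact ((Nat.Prime.coprime_iff_not_dvd hl).2 hlr).symm)
  · intro V _ _ _ hV φ
    exact cov_cross P hl hlp hV φ

end Cfsg.Agent.H369.G3
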