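import Cfsg.Agent.H369.G3.Fix13
import Cfsg.Agent.H366.Coclique
import Cfsg.Agent.S0015

/-!
# Extensions of a solvable group by the simple group of order 1092 (helper369, S3483)

`three` : `K` normal in `H`, `H ⧸ K` simple of order `1092`, `K` of order prime to `7 * 13`; the elements of order `7` are
self-centralizing in the weak sense that no element has order `7 * r`, `r ≠ 7` prime, and no element has order `39`. Then
`3` does not divide `|K|`.
-/

set_option autoImplicit false

open Subgroup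

namespace Cfsg.Agent.H369.G3.Three

variable {H : Type*} [Group H] [Finite H]

/-- the central elements of order three of `K` -/
def V (K : Subgroup H) [K.Normal] : Subgroup H where
  carrier := {v | v ∈ K ∧ (∀ k ∈ K, k * v = v * k) ∧ v ^ 3 = 1}
  one_mem' := ⟨K.one_mem, fun k _ => by rw [mul_one, one_mul], one_pow _⟩
  mul_mem' := by
    rintro a b ⟨ha, ha', ha3⟩ ⟨hb, hb', hb3⟩
    refine ⟨K.mul_mem ha hb, fun k hk => ?_, ?_⟩
    · rw [← mul_assoc, ha' k hk, mul_assoc, hb' k hk, mul_assoc]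
    · have h : Commute a b := (ha' b hb).symm
      rw [h.mul_pow, ha3, hb3, one_mul]
  inv_mem' := by
    rintro a ⟨ha, ha', ha3⟩
    refine ⟨K.inv_mem ha, fun k hk => ?_, by rw [inv_pow, ha3, inv_one]⟩
    have h : Commute k a := ha' k hk
    exact h.inv_right

instance (K : Subgroup H) [K.Normal] : (V K).Normal := by
  refine ⟨fun v hv g => ?_⟩
  obtain ⟨h1, h2, h3⟩ := hv
  refine ⟨Subgroup.Normal.conj_mem inferInstance v h1 g, fun k hk => ?_, ?_⟩
  · have h4 := h2 (g⁻¹ * k * g) (by simpa using Subgroup.Normal.conj_mem (H := K) inferInstance k hk g⁻¹)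
    calc k * (g * v * g⁻¹) = g * ((g⁻¹ * k * g) * v) * g⁻¹ := by group
      _ = g * (v * (g⁻¹ * k * g)) * g⁻¹ := by rw [h4]
      _ = g * v * g⁻¹ * k := by group
  · rw [conj_pow, h3, mul_one, mul_inv_cancel]

instance instCommV (K : Subgroup H) [K.Normal] : CommGroup (V K) :=
  { (inferInstance : Group (V K)) with
    mul_comm := fun a b => Subtype.ext (b.2.2.1 a a.2.1) }

theorem exists_order {p : ℕ} (hp : p.Prime) {x : H} (h : p ∣ orderOf x) : ∃ n : ℕ, orderOf (x ^ n) = p := by
  obtain ⟨c, hc⟩ := h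
  have h0 : 0 < orderOf x := orderOf_pos x
  have hc0 : c ≠ 0 := by
    rintro rfl
    rw [mul_zero] at hc
    omega
  refine ⟨c, ?_⟩
  rw [orderOf_pow_of_dvd hc0 ⟨p, by rw [hc, mul_comm]⟩, hc]
  exact Nat.mul_div_cancel _ (Nat.pos_of_ne_zero hc0)

theorem V_ne_bot (K : Subgroup H) [K.Normal] (hnil : Group.IsNilpotent K) (h3 : 3 ∣ Nat.card K) :
    ∃ v : H, v ∈ V K ∧ v ≠ 1 := by
  have : Fact (Nat.Prime 3) := ⟨Nat.prime_three⟩
  have P : Sylow 3 K := default
  have hPn : (P : Subgroup K).Normal := by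
    have h1 := (Group.isNilpotent_of_finite_tfae (G := K)).out 0 3
    exact h1.1 hnil 3 ⟨Nat.prime_three⟩ P
  have hP : (P : Subgroup K) ≠ ⊥ := P.ne_bot_of_dvd_card h3
  obtain ⟨z, hz, hz1, hzc⟩ := S0015.exists_mem_center_of_normal (P : Subgroup K) hP
  obtain ⟨n, hn⟩ := P.2 ⟨z, hz⟩
  have hn' : z ^ 3 ^ n = 1 := by
    have := congrArg (fun x : (P : Subgroup K) => (x : K)) hn
    simpa using this
  have h3z : 3 ∣ orderOf z := by
    obtain ⟨m, hm, hzm⟩ := (Nat.dvd_prime_pow Nat.prime_three).1 (orderOf_dvd_of_pow_eq_one hn')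
    rcases m with _ | m
    · exact absurd (orderOf_eq_one_iff.1 (by rw [hzm, pow_zero])) hz1
    · rw [hzm]; exact dvd_pow_self 3 (by omega)
  obtain ⟨m, hm⟩ := exists_order Nat.prime_three h3z
  refine ⟨((z ^ m : K) : H), ⟨(z ^ m).2, fun k hk => ?_, ?_⟩, ?_⟩
  · have h1 : z ^ m ∈ center K := (center K).pow_mem hzc m
    exact congrArg Subtype.val (mem_center_iff.1 h1 ⟨k, hk⟩)
  · have h2 : (z ^ m) ^ 3 = 1 := by rw [← hm]; exact pow_orderOf_eq_one _
    have h3 := congrArg (fun x : K => (x : H)) h2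
    simpa using h3
  · intro h
    have h2 : z ^ m = 1 := Subtype.ext h
    rw [h2, orderOf_one] at hm
    norm_num at hm

/-- the action of `H` on `V K` -/
noncomputable def act (K : Subgroup H) [K.Normal] : H →* AddMonoid.End (Additive (V K)) where
  toFun g := MonoidHom.toAdditive ((MulAut.conjNormal g : MulAut (V K)).toMonoidHom)
  map_one' := by
    ext v
    simp
    rfl
  map_mul' a b := by
    ext v
    simp
    rfl

theorem act_apply (K : Subgroup H) [K.Normal] (g : H) (v : V K) :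
    (((act K g (Additive.ofMul v)).toMul : V K) : H) = g * v * g⁻¹ := rfl

theorem act_ker (K : Subgroup H) [K.Normal] : K ≤ (act K).ker := by
  intro k hk
  rw [MonoidHom.mem_ker]
  refine DFunLike.ext _ _ fun v => ?_
  apply Additive.toMul.injective
  apply Subtype.ext
  have h1 := act_apply K k v.toMul
  have h2 := v.toMul.2.2.1 k hk
  have h3 : (((act K k v).toMul : V K) : H) = v.toMul := by
    refine h1.trans ?_
    rw [h2, mul_inv_cancel_right]
  exact h3

/-- **`3` does not divide `|K|`.** -/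
theorem three (K : Subgroup H) [K.Normal] (hs : IsSimpleGroup (H ⧸ K)) (hc : Nat.card (H ⧸ K) = 1092)
    (hnil : Group.IsNilpotent K) (h21 : ¬ ∃ x : H, orderOf x = 21) (h39 : ¬ ∃ x : H, orderOf x = 39) :
    ¬ 3 ∣ Nat.card K := by
  intro h3
  obtain ⟨w, hw, hw1⟩ := V_ne_bot K hnil h3
  have : Fact (Nat.Prime 13) := ⟨by norm_num⟩
  have : Fact (Nat.Prime 7) := ⟨by norm_num⟩
  have : Nontrivial (Additive (V K)) := ⟨⟨Additive.ofMul ⟨w, hw⟩, 0, fun h => hw1 (congrArg (fun x : Additive (V K) => ((x.toMul : V K) : H)) h)⟩⟩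
  let _ : Fintype (H ⧸ K) := Fintype.ofFinite _
  let φ : H ⧸ K →* AddMonoid.End (Additive (V K)) := QuotientGroup.lift K (act K) (act_ker K)
  have hV : ∀ v : Additive (V K), 3 • v = 0 := by
    intro v
    apply Additive.toMul.injective
    apply Subtype.ext
    exact v.toMul.2.2.2
  obtain ⟨x, hx, v, hv, hxv⟩ := Fix13.fix hc hV φ
  obtain ⟨g, rfl⟩ := QuotientGroup.mk_surjective x
  have h1 : act K g v = v := hxv
  have h2 : g * (v.toMul : V K) * g⁻¹ = ((v.toMul : V K) : H) := by
    rw [← act_apply K g v.toMul]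
    exact congrArg (fun x : Additive (V K) => ((x.toMul : V K) : H)) h1
  set u : H := ((v.toMul : V K) : H) with hu
  have hu3 : orderOf u = 3 := by
    refine orderOf_eq_prime v.toMul.2.2.2 ?_
    intro h
    apply hv
    apply Additive.toMul.injective
    apply Subtype.ext
    exact h
  have hcom : Commute g u := by
    have := mul_inv_eq_iff_eq_mul.1 h2
    exact this
  have key : ∀ p : ℕ, p.Prime → p ≠ 3 → orderOf ((g : H ⧸ K)) = p → ∃ y : H, orderOf y = p * 3 := by
    intro p hp hp3 hgp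
    have h4 : p ∣ orderOf g := by
      rw [← hgp]
      exact orderOf_map_dvd (QuotientGroup.mk' K) g
    obtain ⟨n, hn⟩ := exists_order hp h4
    have h5 : Commute (g ^ n) u := hcom.pow_left n
    refine ⟨g ^ n * u, ?_⟩
    rw [h5.orderOf_mul_eq_mul_orderOf_of_coprime, hn, hu3]
    rw [hn, hu3]
    exact (Nat.coprime_primes hp Nat.prime_three).2 hp3
  rcases hx with hx | hx
  · exact h21 (key 7 (by norm_num) (by norm_num) hx)
  · exact h39 (key 13 (by norm_num) (by norm_num) hx)

/-- **Nilpotent.** -/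
theorem nil (K : Subgroup H) [K.Normal] {p : ℕ} (hp : p.Prime) {y : H} (hy : orderOf y = p) (hK : ¬ p ∣ Nat.card K)
    (h : ∀ (x : H), p ∣ orderOf x → orderOf x = p) : Group.IsNilpotent K := by
  refine H366.Coclique.nilpotent_of_fpf K hp (by rw [← hy]; exact pow_orderOf_eq_one y) fun m hm hc => ?_
  by_contra hm1
  have h1 : orderOf m ∣ Nat.card K := by
    have h2 : orderOf (⟨m, hm⟩ : K) ∣ Nat.card K := orderOf_dvd_natCard _
    rwa [Subgroup.orderOf_mk] at h2
  have h2 : Nat.Coprime (orderOf y) (orderOf m) := by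
    rw [hy, Nat.Prime.coprime_iff_not_dvd hp]
    exact fun h3 => hK (h3.trans h1)
  have h3 : Commute y m := hc
  have h4 := h3.orderOf_mul_eq_mul_orderOf_of_coprime h2
  have h5 := h (y * m) (by rw [h4, hy]; exact dvd_mul_right _ _)
  rw [h4, hy] at h5
  have h6 : orderOf m = 1 := by
    have := hp.pos
    nlinarith
  exact hm1 (orderOf_eq_one_iff.1 h6)

/-- **No such extension has elements of order nine.** -/
theorem no_nine (K : Subgroup H) [K.Normal] (hs : IsSimpleGroup (H ⧸ K)) (hc : Nat.card (H ⧸ K) = 1092)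
    (h7K : ¬ 7 ∣ Nat.card K) (h7 : ∀ x : H, 7 ∣ orderOf x → orderOf x = 7) (h39 : ¬ ∃ x : H, orderOf x = 39)
    (h9 : ∃ x : H, orderOf x = 9) : False := by
  have : Fact (Nat.Prime 7) := ⟨by norm_num⟩
  obtain ⟨y, hy⟩ : ∃ y : H, orderOf y = 7 := by
    refine exists_prime_orderOf_dvd_card' 7 ?_
    rw [Subgroup.card_eq_card_quotient_mul_card_subgroup K, hc]
    exact Dvd.dvd.mul_right (by norm_num) _
  have hnil := nil K (by norm_num) hy h7K h7
  refine three K hs hc hnil ?_ h39 ?_
  · rintro ⟨x, hx⟩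
    have := h7 x (by rw [hx]; norm_num)
    omega
  · obtain ⟨x, hx⟩ := h9
    have h1 : orderOf ((x : H ⧸ K)) ∣ 9 := by rw [← hx]; exact orderOf_map_dvd (QuotientGroup.mk' K) x
    have h2 : orderOf ((x : H ⧸ K)) ∣ 1092 := by rw [← hc]; exact orderOf_dvd_natCard _
    have h3 : orderOf ((x : H ⧸ K)) ∣ 3 := by
      have := Nat.dvd_gcd h1 h2
      norm_num at this
      exact this
    have h4 : x ^ 3 ∈ K := by
      rw [← QuotientGroup.eq_one_iff, QuotientGroup.mk_pow]
      exact orderOf_dvd_iff_pow_eq_one.1 h3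
    have h5 : orderOf (x ^ 3) = 3 := by
      rw [orderOf_pow_of_dvd (by norm_num) (by rw [hx]; norm_num), hx]
    have h6 : orderOf (⟨x ^ 3, h4⟩ : K) ∣ Nat.card K := orderOf_dvd_natCard _
    rwa [Subgroup.orderOf_mk, h5] at h6

end Cfsg.Agent.H369.G3.Three
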